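import Cfsg.Agent.Lib.ZStar.Main
import Cfsg.Agent.Lib.Block.Misc

/-!
# The principal block for a quaternion Sylow 2-subgroup of order 8 with central involution
-/

set_option autoImplicit false
set_option linter.unusedSectionVars false
set_option linter.style.haveILetI false

namespace Cfsg.Agent.ZStar

open MonoidAlgebra Cfsg.Agent.Char Cfsg.Agent.Block Cfsg.Agent.Cover Subgroup
open Cfsg.Agent.Tr (SylowIn)
open scoped ComplexConjugate

universe u

/-- The constituents of a combination of orthonormal generalized characters. -/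
theorem card_support_of_orthonormal {G : Type*} [Group G] [Fintype G] {ι : Type*} [Fintype ι]
    [DecidableEq ι] (φ : ι → G → ℂ) (hφ : ∀ i, IsGeneralizedCharacter G (φ i))
    (ho : ∀ i j, classInner (φ i) (φ j) = if i = j then 1 else 0) (a : ι → ℂ)
    (ha : ∀ i, a i ≠ 0) (B : Set (IrrCharacter G))
    (hB : ∀ χ : IrrCharacter G, χ ∈ B ↔ classInner (∑ i, a i • φ i) χ.1 ≠ 0) :
    Nat.card B = Fintype.card ι := by
  classical
  have h1 : ∀ i, ∃ (ψ : IrrCharacter G) (ε : ℂ), ε ≠ 0 ∧ φ i = ε • ψ.1 := by
    intro i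
    rcases isIrr_or_neg_of_inner_self (hφ i) (by rw [ho, if_pos rfl]) with h | h
    · exact ⟨⟨_, h⟩, 1, one_ne_zero, by simp⟩
    · exact ⟨⟨_, h⟩, -1, by simp, by simp⟩
  choose ψ ε hε hψ using h1
  have hinj : Function.Injective ψ := by
    intro i j hij
    by_contra hne
    have := ho i j
    rw [if_neg hne, hψ, hψ, Char.inner_smul_left, Char.inner_smul_right, hij, inner_irr,
      if_pos rfl] at this
    simp [hε] at this
  have h2 : B = Set.range ψ := by
    ext χ
    rw [hB, Char.inner_sum_left]
    simp only [Char.inner_smul_left, hψ, inner_irr]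
    constructor
    · intro h
      by_contra hn
      exact h (Finset.sum_eq_zero fun i _ => by rw [if_neg fun h => hn ⟨i, h⟩]; simp)
    · rintro ⟨i, rfl⟩
      rw [Finset.sum_eq_single i (fun j _ hj => by rw [if_neg (hinj.ne hj)]; simp) (by simp),
        if_pos rfl]
      simp [ha, hε]
  rw [h2, Nat.card_range_of_injective hinj, Nat.card_eq_fintype_card]

section Data

variable {H : Type u} {K : Type*} [Group H] [Group K] [Fintype H] [Finite K] {t : H}
variable {M : Ideal AlgInt} [hM : M.IsMaximal] [CharP (Res M) 2]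

theorem card_principalBlock_of_data (q : QH t) {π : H →* K} (hπ : Function.Surjective π)
    (hker : ∀ h, π h = 1 ↔ h = 1 ∨ h = t) {e : Fin 3 → IrrCharacter K} {δ : Fin 3 → ℤ}
    (k : KD M e δ) {u : H} (hu : 4 ∣ orderOf u) : Nat.card (principalBlock M H) = 7 := by
  classical
  have hγ : ∀ i, IsGeneralizedCharacter H (gam (bE π e δ i)) := fun i =>
    q.isGen_gam (isGen_bE i) (bE_mul hker i) (bE_four q hker k i)
  have hγγ : ∀ i j, classInner (gam (bE π e δ i)) (gam (bE π e δ j)) =
      if i = j then 1 else 0 := by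
    intro i j
    rw [QH.inner_gam (bE_four q hker k i) (bE_four q hker k j), inner_bE hπ k]
    have := inner_ind4 q hπ hker k hu
    split_ifs <;> push_cast <;> linear_combination -this
  have hγ1 : ∀ i, sE π e δ i 1 + 1 ≠ 0 := by
    intro i h0
    have h1 : gam (bE π e δ i) 1 = 0 := by
      rw [← h0]
      simp [gam, bE, add_comm]
    rcases isIrr_or_neg_of_inner_self (hγ i) (by rw [hγγ, if_pos rfl]) with h | h
    · exact apply_one_ne_zero_of_isIrr h h1
    · exact apply_one_ne_zero_of_isIrr h (by simp [h1])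
  have hs1 : ∀ i, sE π e δ i 1 ≠ 0 := by
    intro i
    simp only [sE, Pi.smul_apply, smul_eq_mul, map_one]
    refine mul_ne_zero ?_ (irr_apply_one_ne_zero _)
    rcases k.sign i with h | h <;> simp [h]
  have hs := bD_not_four q hker k hu 1 (by simp)
  simp only [bD, Pi.add_apply, Finset.sum_apply, Fin.sum_univ_three] at hs
  have hpar : ∀ {f : H → ℂ} (i), (∀ x, f (t * x) = f x) →
      classInner f (gam (bE π e δ i)) = 0 ∧ classInner (gam (bE π e δ i)) f = 0 := by
    intro f i hf
    exact ⟨inner_eq_zero_of_parity t fun x => by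
        rw [hf, q.gam_mul (bE_mul hker i), map_neg, mul_neg],
      inner_eq_zero_of_parity t fun x => by rw [hf, q.gam_mul (bE_mul hker i), neg_mul]⟩
  let φ : Option (Fin 3 ⊕ Fin 3) → H → ℂ := fun o =>
    o.elim (fun _ => 1) (Sum.elim (sE π e δ) fun i => gam (bE π e δ i))
  let a : Option (Fin 3 ⊕ Fin 3) → ℂ := fun o =>
    o.elim 1 (Sum.elim (fun i => sE π e δ i 1) fun i => -(sE π e δ i 1 + 1))
  rw [card_support_of_orthonormal φ ?_ ?_ a ?_ _ ?_]
  · simp
  · rintro (_ | i | i)
    exacts [isGen_one, isGen_sE i, hγ i]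
  · rintro (_ | i | i) (_ | j | j)
    · simpa [φ] using inner_one_one
    · simpa [φ] using inner_one_sE hπ k j
    · simpa [φ] using (hpar j fun _ => rfl).1
    · simpa [φ] using inner_sE_one hπ k i
    · simpa [φ] using inner_sE hπ k i j
    · simpa [φ] using (hpar j (sE_mul hker i)).1
    · simpa [φ] using (hpar i fun _ => rfl).2
    · simpa [φ] using (hpar i (sE_mul hker j)).2
    · simpa [φ] using hγγ i j
  · rintro (_ | i | i)
    exacts [one_ne_zero, hs1 i, neg_ne_zero.2 (hγ1 i)]
  · intro χ
    have h1 : ∑ i, a i • φ i = fun g => kb (principalBlock M H) g t := by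
      funext g
      have h2 : gam (bD π e δ) g = 0 := by
        by_cases h4 : 4 ∣ orderOf g
        · have : 2 ∣ orderOf g := by omega
          simp [gam, h4, this]
        · simp [gam, h4, bD_not_four q hker k hu g h4]
      rw [kb_eq_alp q hker k hu hπ]
      simp only [alp, Pi.sub_apply, h2]
      simp only [a, φ, Fintype.sum_option, Fintype.sum_sum_type, Finset.sum_apply, Pi.add_apply,
        Pi.smul_apply, smul_eq_mul, Option.elim, Sum.elim_inl, Sum.elim_inr, Fin.sum_univ_three]
      have hE : ∀ i, bE π e δ i g = 1 + sE π e δ i g := fun _ => rfl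
      have hD : bD π e δ g = 1 + (sE π e δ 0 g + sE π e δ 1 g + sE π e δ 2 g) := by
        simp [bD, Fin.sum_univ_three]
      simp only [hE, hD]
      linear_combination -hs
    rw [h1, inner_kb]
    split_ifs with h
    · refine iff_of_true h ((map_ne_zero _).2 (apply_ne_zero_of_mem_principalBlock (p := 2) h ?_))
      rw [centralizer_eq_top_iff_subset.2 (Set.singleton_subset_iff.2 q.cen), index_top]
      omega
    · simp [h]

end Data

end Cfsg.Agent.ZStar
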